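import Mathlib
import Cfsg.Agent.Lib.Helper13.HermWitt
import Cfsg.Agent.Lib.Helper45.HermSU2
import Cfsg.Agent.Lib.Helper60.SUG.GenDefs

/-!
# Project SUG (S2412), [GEN] leaf [GEX]: `lam` of norm `-1` and a nonzero `c₀` of trace zero.
-/

set_option autoImplicit false

namespace Cfsg.Agent.Lib.Helper70.SUG

open Cfsg.Agent.Lib.Helper60.SUG

universe u

/-- **[GEX]** -/
theorem pkgGEx : PkgGEx.{u} := by
  intro F _ _ q hF
  obtain ⟨r, hr⟩ := Cfsg.Agent.Lib.Helper13.exists_norm_neg_one (m := 1) hF le_rfl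
  obtain ⟨c₀, hc0, hc⟩ := Cfsg.Agent.Lib.Helper45.exists_skew hF
  refine ⟨r 0, c₀, ?_, hc0, hc⟩
  have h1 : Cfsg.hermForm 1 F q r r = r 0 * r 0 ^ q := by
    unfold Cfsg.hermForm
    simp
  rw [pow_succ', ← h1, hr]

end Cfsg.Agent.Lib.Helper70.SUG
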